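import Cfsg.Agent.Lib.KnownSimple.MultM.M12.CertZ0

/-!
# The relations between the relators
-/

set_option autoImplicit false

namespace Cfsg.Agent.Lib.KnownSimple.MultM.M12

open Cfsg Cfsg.Spor Cfsg.Agent.Lib.Compute Cfsg.Agent.Lib.KnownSimple.PE Cfsg.Agent.Lib.KnownSimple.Leech
open Cfsg.Agent.Lib.KnownSimple Cfsg.Agent.Lib.KnownSimple.AutRigid Cfsg.Agent.Lib.KnownSimple.Pres
open Cfsg.Agent.Lib.KnownSimple.MultC
open Cfsg.Agent.Lib.Golay Cfsg.Agent.Lib.KnownSimple.CodeCalc Cfsg.Agent.Lib.KnownSimple.MathieuData Cfsg.Agent.Lib.KnownSimple.MathieuFacts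
open Cfsg.Agent.Lib.KnownSimple.MathieuGen Cfsg.Agent.Lib.KnownSimple.MathieuOut Cfsg.Agent.Lib.KnownSimple.MultM

set_option maxHeartbeats 0 in
set_option maxRecDepth 100000 in
theorem hcert : ∀ q, q < R0.length → ∃ (a : ℤ) (L : List Entry),
    chkCert C.τ d n RL R0.length 0 q a L = true ∧ (q = 0 → a = 1 - ((2 : ℕ) : ℤ)) := by
  intro q hq
  have e : R0.length = 22 := by decide +kernel
  rw [e] at hq
  interval_cases q
  · exact ⟨-1, L0, cert0, by norm_num⟩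
  · exact ⟨1, L1, cert1, by norm_num⟩
  · exact ⟨1, L2, cert2, by norm_num⟩
  · exact ⟨1, L3, cert3, by norm_num⟩
  · exact ⟨1, L4, cert4, by norm_num⟩
  · exact ⟨0, L5, cert5, by norm_num⟩
  · exact ⟨1, L6, cert6, by norm_num⟩
  · exact ⟨0, L7, cert7, by norm_num⟩
  · exact ⟨0, L8, cert8, by norm_num⟩
  · exact ⟨0, L9, cert9, by norm_num⟩
  · exact ⟨1, L10, cert10, by norm_num⟩
  · exact ⟨1, L11, cert11, by norm_num⟩
  · exact ⟨1, L12, cert12, by norm_num⟩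
  · exact ⟨1, L13, cert13, by norm_num⟩
  · exact ⟨1, L14, cert14, by norm_num⟩
  · exact ⟨0, L15, cert15, by norm_num⟩
  · exact ⟨1, L16, cert16, by norm_num⟩
  · exact ⟨1, L17, cert17, by norm_num⟩
  · exact ⟨1, L18, cert18, by norm_num⟩
  · exact ⟨0, L19, cert19, by norm_num⟩
  · exact ⟨0, L20, cert20, by norm_num⟩
  · exact ⟨0, L21, cert21, by norm_num⟩

end Cfsg.Agent.Lib.KnownSimple.MultM.M12
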