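import Mathlib

/-!
# Data of a coset enumeration
-/

set_option autoImplicit false

namespace Cfsg.Agent.Lib.KnownSimple.MultM.M12

/-- Generated data. -/
def par1 : ℕ := 0x152240
/-- Generated data. -/
def gix1 : ℕ := 0x1948
/-- Generated data. -/
def dp1 : ℕ := 0x11b488
/-- Generated data. -/
def fa1 : ℕ := 0xd5b476aa5499200
/-- Generated data. -/
def fl1 : ℕ := 0x2080800008100020718004041010008080
/-- Generated data. -/
def fb1 : ℕ := 0xa8d236c93b1b440
/-- Generated data. -/
def fk1 : ℕ := 0x34322465037800600011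
/-- Generated data. -/
def po1 : ℕ := 0xbeeb6caea95c71a3c5145000000000
/-- Generated data. -/
def pc1 : ℕ := 0x1111115902ba00500000
/-- Generated data. -/
def pa1 : ℕ := 0xb3910312ceabef68a0f532617931864a9077c5683b8c4184611952820ca9
/-- Generated data. -/
def can1 : ℕ := 0x35688
/-- Generated data. -/
def tb1_0 : ℕ := 0x2b850
/-- Generated data. -/
def fi1_0 : ℕ := 0x18883c60
/-- Generated data. -/
def tb1_1 : ℕ := 0x25298
/-- Generated data. -/
def fi1_1 : ℕ := 0x26b8a881
/-- Generated data. -/
def tb1_2 : ℕ := 0x2a701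
/-- Generated data. -/
def fi1_2 : ℕ := 0x1b229dc2

end Cfsg.Agent.Lib.KnownSimple.MultM.M12
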