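import Cfsg.Agent.Lib.KnownSimple.MultC.Trie

/-!
# The cocycle
-/

set_option autoImplicit false

namespace Cfsg.Agent.Lib.KnownSimple.MultM.M12

open Cfsg.Agent.Lib.KnownSimple.MultC

/-- The table of a cocycle. -/
def kb : ZN := (.node 0 (.node 1 (.node 1 (.node 1 (.node 1 (.node 1 (.node 0 .nil .nil) (.node 1 .nil .nil)) (.node 0 (.node 1 .nil .nil) (.node 0 .nil .nil))) (.node 0 (.node 1 (.node 0 .nil .nil) (.node 0 .nil .nil)) (.node 0 (.node 0 .nil .nil) (.node 1 .nil .nil)))) (.node 0 (.node 1 (.node 0 (.node 1 .nil .nil) (.node 0 .nil .nil)) (.node 1 (.node 0 .nil .nil) (.node 0 .nil .nil))) (.node 1 (.node 0 (.node 0 .nil .nil) (.node 1 .nil .nil)) (.node 1 (.node 0 .nil .nil) .nil)))) (.node 1 (.node 0 (.node 1 (.node 1 (.node 0 .nil .nil) (.node 0 .nil .nil)) (.node 0 (.node 0 .nil .nil) (.node 1 .nil .nil))) (.node 1 (.node 1 (.node 1 .nil .nil) (.node 0 .nil .nil)) (.node 0 (.node 0 .nil .nil) .nil)))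 (.node 1 (.node 1 (.node 0 (.node 0 .nil .nil) (.node 1 .nil .nil)) (.node 1 (.node 1 .nil .nil) (.node 1 .nil .nil))) (.node 1 (.node 1 (.node 0 .nil .nil) (.node 0 .nil .nil)) (.node 0 (.node 0 .nil .nil) .nil))))) (.node 0 (.node 0 (.node 1 (.node 0 (.node 0 (.node 1 .nil .nil) (.node 1 .nil .nil)) (.node 1 (.node 1 .nil .nil) (.node 0 .nil .nil))) (.node 0 (.node 0 (.node 0 .nil .nil) (.node 1 .nil .nil)) (.node 1 (.node 1 .nil .nil) .nil))) (.node 0 (.node 0 (.node 1 (.node 1 .nil .nil) (.node 0 .nil .nil)) (.node 0 (.node 0 .nil .nil) (.node 0 .nil .nil))) (.node 0 (.node 0 (.node 1 .nil .nil) (.node 1 .nil .nil)) (.node 1 (.node 1 .nil .nil) .nil)))) (.node 0 (.node 1 (.node 0 (.node 1 (.node 0 .nil .nil) (.node 1 .nil .nil)) (.node 0 (.node 1 .nil .nil) (.node 1 .nil .nil))) (.node 0 (.node 1 (.node 1 .nil .nil) (.node 0 .nil .nil)) (.node 0 (.node 1 .nil .nil) .nil))) (.node 0 (.node 1 (.node 0 (.node 1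 .nil .nil) (.node 1 .nil .nil)) (.node 1 (.node 1 .nil .nil) (.node 0 .nil .nil))) (.node 0 (.node 1 (.node 0 .nil .nil) (.node 1 .nil .nil)) (.node 1 (.node 0 .nil .nil) .nil))))))

end Cfsg.Agent.Lib.KnownSimple.MultM.M12
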