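import Cfsg.Agent.Lib.KnownSimple.MultM.M11.Main
import Cfsg.Agent.Lib.KnownSimple.MultM.M12.CertAll
import Cfsg.Agent.Lib.KnownSimple.MultM.M12.Low

/-!
# The Schur multiplier
-/

set_option autoImplicit false

namespace Cfsg.Agent.Lib.KnownSimple.MultM.M12

open Cfsg Cfsg.Spor Cfsg.Agent.Lib.Compute Cfsg.Agent.Lib.KnownSimple.PE Cfsg.Agent.Lib.KnownSimple.Leech
open Cfsg.Agent.Lib.KnownSimple Cfsg.Agent.Lib.KnownSimple.AutRigid Cfsg.Agent.Lib.KnownSimple.Pres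
open Cfsg.Agent.Lib.KnownSimple.MultC
open Cfsg.Agent.Lib.Golay Cfsg.Agent.Lib.KnownSimple.CodeCalc Cfsg.Agent.Lib.KnownSimple.MathieuData Cfsg.Agent.Lib.KnownSimple.MathieuFacts
open Cfsg.Agent.Lib.KnownSimple.MathieuGen Cfsg.Agent.Lib.KnownSimple.MathieuOut Cfsg.Agent.Lib.KnownSimple.MultM

/-- A word. -/
def wS0 : List ℕ := [2,0,6,8,2,6,4,2,0]
theorem hS0 : ∃ u ∈ stabOf ρ h0, ψ u = 1 * U * 1⁻¹ := by
  have hw : ∀ l ∈ wS0, l < 2 * d := by decide +kernel
  refine ⟨ev v wS0, word_mem_stab C hρ hw h0 (by decide +kernel), ?_⟩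
  rw [one_mul, inv_one, mul_one]
  exact (toX_word enc CN hρ0 hw (isCode_ppm (by decide +kernel)) (by decide +kernel)).symm
/-- A word. -/
def wS1 : List ℕ := [8,4,6,8,2,0,2,4,2]
theorem hS1 : ∃ u ∈ stabOf ρ h0, ψ u = 1 * X * 1⁻¹ := by
  have hw : ∀ l ∈ wS1, l < 2 * d := by decide +kernel
  refine ⟨ev v wS1, word_mem_stab C hρ hw h0 (by decide +kernel), ?_⟩
  rw [one_mul, inv_one, mul_one]
  exact (toX_word enc CN hρ0 hw (isCode_ppm (by decide +kernel)) (by decide +kernel)).symm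
/-- A word. -/
def wS2 : List ℕ := [6,0,8,2,0,6,0]
theorem hS2 : ∃ u ∈ stabOf ρ h0, ψ u = 1 * Y4' * 1⁻¹ := by
  have hw : ∀ l ∈ wS2, l < 2 * d := by decide +kernel
  refine ⟨ev v wS2, word_mem_stab C hρ hw h0 (by decide +kernel), ?_⟩
  rw [one_mul, inv_one, mul_one]
  exact (toX_word enc CN hρ0 hw (isCode_ppm (by decide +kernel)) (by decide +kernel)).symm
theorem hTM : ({U, X, Y4'} : Set P24) ⊆ M11 := by
  rintro t (rfl | rfl | rfl)
  · exact mem_of_t11 (by decide +kernel : tM11 pU = true)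
  · exact mem_of_t11 (by decide +kernel : tM11 pX = true)
  · exact mem_of_t11 (by decide +kernel : tM11 pY4' = true)
theorem hMF : MF (stabOf ρ h0) := by
  refine MF_stab_of_words ψ hψinj ρ h0 (htr_right htr) M11 Cfsg.Agent.Lib.KnownSimple.MultM.M11.mf 1 _ hTM gen_M11 ?_ ?_
  · rintro t (rfl | rfl | rfl)
    · exact hS0
    · exact hS1
    · exact hS2
  · rw [card_P, card_M11]
    rfl

theorem upperP (Γ : Type) [Group Γ] [Finite Γ] (σ : Γ →* P) (hσ : IsStemExtension σ) :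
    ∃ π : Multiplicative (ZMod 2) →* σ.ker, Function.Surjective π :=
  upper C hP A B hcomm hρ htr hMF hrr.1 hrr.2 rfl hokR hloopR (qs := 0) (m := 2) (by decide +kernel) hcert Γ σ hσ

theorem multP : HasCyclicSchurMultiplier P 2 := hasCyclic_of lowerP upperP

theorem mult : HasCyclicSchurMultiplier ↥M12 2 := hasSchur_congr e multP

end Cfsg.Agent.Lib.KnownSimple.MultM.M12
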