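import Cfsg.Agent.Lib.KnownSimple.MultC.Trie

/-!
# The table
-/

set_option autoImplicit false

namespace Cfsg.Agent.Lib.KnownSimple.MultM.M12

open Cfsg.Agent.Lib.KnownSimple.MultC

/-- The table of the letters. -/
def tb : ZN := (.node 1 (.node 1 (.node 2 (.node 4 (.node 5 (.node 8 (.node 11 .nil .nil) (.node 11 .nil .nil)) (.node 0 (.node 4 .nil .nil) (.node 5 .nil .nil))) (.node 0 (.node 10 (.node 10 .nil .nil) (.node 7 .nil .nil)) (.node 1 (.node 10 .nil .nil) (.node 8 .nil .nil)))) (.node 0 (.node 0 (.node 0 (.node 9 .nil .nil) (.node 5 .nil .nil)) (.node 11 (.node 5 .nil .nil) (.node 9 .nil .nil))) (.node 7 (.node 1 (.node 8 .nil .nil) (.node 8 .nil .nil)) (.node 9 (.node 4 .nil .nil) .nil)))) (.node 3 (.node 1 (.node 3 (.node 9 (.node 2 .nil .nil) (.node 6 .nil .nil)) (.node 7 (.node 3 .nil .nil) (.node 6 .nil .nil))) (.node 6 (.node 9 (.node 10 .nil .nil) (.node 4 .nil .nil)) (.node 11 (.node 11 .nil .nil) .nil)))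 (.node 4 (.node 6 (.node 1 (.node 2 .nil .nil) (.node 7 .nil .nil)) (.node 8 (.node 7 .nil .nil) (.node 5 .nil .nil))) (.node 6 (.node 10 (.node 2 .nil .nil) (.node 3 .nil .nil)) (.node 2 (.node 3 .nil .nil) .nil))))) (.node 2 (.node 3 (.node 1 (.node 3 (.node 9 (.node 2 .nil .nil) (.node 6 .nil .nil)) (.node 7 (.node 3 .nil .nil) (.node 6 .nil .nil))) (.node 6 (.node 9 (.node 10 .nil .nil) (.node 4 .nil .nil)) (.node 11 (.node 11 .nil .nil) .nil))) (.node 4 (.node 6 (.node 1 (.node 2 .nil .nil) (.node 7 .nil .nil)) (.node 8 (.node 7 .nil .nil) (.node 5 .nil .nil))) (.node 6 (.node 10 (.node 2 .nil .nil) (.node 3 .nil .nil)) (.node 2 (.node 3 .nil .nil) .nil)))) (.node 4 (.node 0 (.node 0 (.node 0 (.node 9 .nil .nil) (.node 5 .nil .nil)) (.node 11 (.node 5 .nil .nil) (.node 9 .nil .nil))) (.node 7 (.node 1 (.node 8 .nil .nil) (.node 8 .nil .nil)) (.node 9 (.node 4 .nil .nil) .nil))) (.node 5 (.node 0 (.node 10 (.node 10 .nil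 .nil) (.node 7 .nil .nil)) (.node 1 (.node 10 .nil .nil) (.node 8 .nil .nil))) (.node 8 (.node 0 (.node 4 .nil .nil) (.node 5 .nil .nil)) (.node 11 (.node 11 .nil .nil) .nil))))))
/-- The tree: parents. -/
def parL : List ℕ := [0,0,0,0,0,1,2,2,3,3,3,5]
/-- The tree: letters. -/
def genL : List ℕ := [0,0,2,4,6,4,0,6,0,2,8,0]

end Cfsg.Agent.Lib.KnownSimple.MultM.M12
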